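import Mathlib
import Cfsg.Agent.SporadicA.CodeUnique
set_option linter.all false

/-!
Self-dual binary codes of length 24 with minimum weight at least 8 (no assumption of double
evenness): coset leaders, the Steiner system of octads, double evenness, spanning by octads.
-/

set_option autoImplicit false

namespace Cfsg.Agent.H869.SelfDual

open Cfsg.Agent.SporadicA.CodeUnique

variable {α : Type*} [Fintype α] [DecidableEq α]

/-- Self-dual codes of length 24 and minimum weight at least 8. -/
structure SD (C : Submodule (ZMod 2) (α → ZMod 2)) : Prop where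
  card_eq : Fintype.card α = 24
  finrank_eq : Module.finrank (ZMod 2) C = 12
  orth : ∀ v ∈ C, ∀ w ∈ C, ∑ i, v i * w i = 0
  min : ∀ w ∈ C, w ≠ 0 → 8 ≤ hammingNorm w

variable {C : Submodule (ZMod 2) (α → ZMod 2)}

omit [Fintype α] in
theorem ind_inj {S T : Finset α} (h : ind S = ind T) : S = T := by
  ext i
  rw [← ind_eq_one_iff, ← ind_eq_one_iff, h]

theorem SD.card_le (h : SD C) {S : Finset α} (hS : ind S ∈ C) (hne : S.Nonempty) : 8 ≤ S.card := by
  rw [← hammingNorm_ind]
  apply h.min _ hS
  intro h0
  rw [← ind_empty] at h0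
  exact hne.ne_empty (ind_inj h0)

/-- two sets in the same coset are equal or differ in at least 8 places -/
theorem SD.eq_or (h : SD C) {S T : Finset α} (hST : ind (symmDiff S T) ∈ C) :
    S = T ∨ 8 ≤ (symmDiff S T).card := by
  by_cases hne : (symmDiff S T).Nonempty
  · exact Or.inr (h.card_le hST hne)
  · left
    rw [Finset.not_nonempty_iff_eq_empty] at hne
    exact symmDiff_eq_bot.1 hne

/-- the coset of a set -/
def q (C : Submodule (ZMod 2) (α → ZMod 2)) (S : Finset α) : (α → ZMod 2) ⧸ C :=
  Submodule.Quotient.mk (ind S)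

omit [Fintype α] in
theorem q_eq_iff {S T : Finset α} : q C S = q C T ↔ ind (symmDiff S T) ∈ C := by
  rw [q, q, Submodule.Quotient.eq, ind_symmDiff]
  have : (ind S - ind T : α → ZMod 2) = ind S + ind T := by
    funext i
    have : ∀ a b : ZMod 2, a - b = a + b := by decide
    exact this _ _
  rw [this]

theorem q_surj (x : (α → ZMod 2) ⧸ C) : ∃ S : Finset α, q C S = x := by
  obtain ⟨w, rfl⟩ := Submodule.Quotient.mk_surjective C x
  exact ⟨_, congrArg _ (eq_ind w).symm⟩

/-- sets with at most three elements -/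
def P3 (α : Type*) [Fintype α] [DecidableEq α] : Finset (Finset α) :=
  (Finset.univ : Finset (Finset α)).filter fun S => S.card ≤ 3

/-- sets with four elements -/
def P4 (α : Type*) [Fintype α] [DecidableEq α] : Finset (Finset α) :=
  Finset.powersetCard 4 Finset.univ

theorem mem_P3 {S : Finset α} : S ∈ P3 α ↔ S.card ≤ 3 := by simp [P3]

theorem mem_P4 {S : Finset α} : S ∈ P4 α ↔ S.card = 4 := by simp [P4, Finset.mem_powersetCard]

theorem card_P4 (h : Fintype.card α = 24) : (P4 α).card = 10626 := by
  rw [P4, Finset.card_powersetCard, Finset.card_univ, h]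
  decide

theorem card_P3 (h : Fintype.card α = 24) : (P3 α).card = 2325 := by
  have h1 : P3 α = (Finset.range 4).biUnion fun k => Finset.powersetCard k Finset.univ := by
    ext S
    simp only [mem_P3, Finset.mem_biUnion, Finset.mem_range, Finset.mem_powersetCard,
      Finset.subset_univ, true_and]
    constructor
    · intro hS
      exact ⟨S.card, by omega, rfl⟩
    · rintro ⟨k, hk, rfl⟩
      omega
  rw [h1, Finset.card_biUnion]
  · simp only [Finset.card_powersetCard, Finset.card_univ, h]
    decide
  · intro i _ j _ hij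
    exact Finset.pairwise_disjoint_powersetCard _ hij

theorem q_injOn (h : SD C) : Set.InjOn (q C) (P3 α : Set (Finset α)) := by
  intro S hS T hT hST
  have hS' : S.card ≤ 3 := mem_P3.1 hS
  have hT' : T.card ≤ 3 := mem_P3.1 hT
  rcases h.eq_or (q_eq_iff.1 hST) with h1 | h1
  · exact h1
  · have := card_symmDiff_add S T
    omega

theorem q_ne (h : SD C) {S T : Finset α} (hS : S.card ≤ 3) (hT : T.card = 4) : q C S ≠ q C T := by
  intro hST
  rcases h.eq_or (q_eq_iff.1 hST) with h1 | h1
  · rw [h1] at hS
    omega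
  · have := card_symmDiff_add S T
    omega

/-- different 4-sets in the same coset are disjoint -/
theorem SD.disjoint (h : SD C) {S T : Finset α} (hS : S.card = 4) (hT : T.card = 4)
    (hST : q C S = q C T) (hne : S ≠ T) : Disjoint S T := by
  rcases h.eq_or (q_eq_iff.1 hST) with h1 | h1
  · exact absurd h1 hne
  · have := card_symmDiff_add S T
    rw [Finset.disjoint_iff_inter_eq_empty, ← Finset.card_eq_zero]
    omega

/-- the 4-sets in a coset -/
noncomputable def fib (C : Submodule (ZMod 2) (α → ZMod 2)) (x : (α → ZMod 2) ⧸ C) :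
    Finset (Finset α) := by
  classical
  exact (P4 α).filter fun S => q C S = x

theorem mem_fib {x : (α → ZMod 2) ⧸ C} {S : Finset α} :
    S ∈ fib C x ↔ S.card = 4 ∧ q C S = x := by
  classical
  simp [fib, mem_P4]

theorem SD.union_card (h : SD C) (x : (α → ZMod 2) ⧸ C) :
    ((fib C x).biUnion id).card = 4 * (fib C x).card := by
  rw [Finset.card_biUnion]
  · rw [Finset.sum_const_nat (m := 4)]
    · ring
    · intro S hS
      exact (mem_fib.1 hS).1
  · intro S hS T hT hne
    exact h.disjoint (mem_fib.1 hS).1 (mem_fib.1 hT).1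
      ((mem_fib.1 hS).2.trans (mem_fib.1 hT).2.symm) hne

theorem SD.fib_le (h : SD C) (x : (α → ZMod 2) ⧸ C) : (fib C x).card ≤ 6 := by
  have h1 := h.union_card x
  have h2 := Finset.card_le_univ ((fib C x).biUnion id)
  rw [h.card_eq] at h2
  omega

theorem SD.card_quot (h : SD C) : Nat.card ((α → ZMod 2) ⧸ C) = 4096 := by
  have h1 : Module.finrank (ZMod 2) ((α → ZMod 2) ⧸ C) = 12 := by
    have := Submodule.finrank_quotient_add_finrank C
    rw [h.finrank_eq, Module.finrank_fintype_fun_eq_card, h.card_eq] at this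
    omega
  rw [Module.natCard_eq_pow_finrank (K := ZMod 2), h1]
  simp

/-- the covering and the counting statement -/
theorem SD.main (h : SD C) (x : (α → ZMod 2) ⧸ C) :
    (∃ S : Finset α, S.card ≤ 3 ∧ q C S = x) ∨ (fib C x).card = 6 := by
  classical
  haveI : Fintype ((α → ZMod 2) ⧸ C) := Fintype.ofFinite _
  have hQ : (Finset.univ : Finset ((α → ZMod 2) ⧸ C)).card = 4096 := by
    rw [Finset.card_univ, ← Nat.card_eq_fintype_card]
    exact h.card_quot
  set A : Finset ((α → ZMod 2) ⧸ C) := (P3 α).image (q C) with hA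
  have hAc : A.card = 2325 := by
    rw [hA, Finset.card_image_of_injOn (q_injOn h), card_P3 h.card_eq]
  -- outside of A
  have hsum : (P4 α).card = ∑ y ∈ Aᶜ, (fib C y).card := by
    rw [Finset.card_eq_sum_card_fiberwise (f := q C) (t := Aᶜ)]
    · rfl
    · intro S hS
      rw [Finset.mem_coe, Finset.mem_compl, hA, Finset.mem_image]
      rintro ⟨T, hT, hTS⟩
      exact q_ne h (mem_P3.1 hT) (mem_P4.1 hS) hTS
  have hAcc : (Aᶜ).card = 1771 := by
    rw [Finset.card_compl, ← Finset.card_univ, hQ, hAc]
  by_cases hx : x ∈ A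
  · left
    rw [hA, Finset.mem_image] at hx
    obtain ⟨S, hS, hSx⟩ := hx
    exact ⟨S, mem_P3.1 hS, hSx⟩
  · right
    rw [card_P4 h.card_eq] at hsum
    by_contra hne
    have hlt : (fib C x).card < 6 := lt_of_le_of_ne (h.fib_le x) hne
    have : ∑ y ∈ Aᶜ, (fib C y).card < ∑ y ∈ Aᶜ, 6 :=
      Finset.sum_lt_sum (fun y _ => h.fib_le y) ⟨x, Finset.mem_compl.2 hx, hlt⟩
    rw [Finset.sum_const, hAcc, smul_eq_mul] at this
    omega

/-- for a 4-set the coset has six 4-sets -/
theorem SD.fib_card (h : SD C) {T : Finset α} (hT : T.card = 4) : (fib C (q C T)).card = 6 := by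
  rcases h.main (q C T) with ⟨S, hS, hST⟩ | h1
  · exact absurd hST (q_ne h hS hT)
  · exact h1

theorem SD.fib_union (h : SD C) {T : Finset α} (hT : T.card = 4) :
    (fib C (q C T)).biUnion id = Finset.univ := by
  rw [← Finset.card_eq_iff_eq_univ, h.union_card, h.fib_card hT, h.card_eq]

/-- Five points are in an octad. -/
theorem SD.exists_octad (h : SD C) {s : Finset α} (hs : s.card = 5) :
    ∃ O : Finset α, ind O ∈ C ∧ O.card = 8 ∧ s ⊆ O := by
  obtain ⟨x, hx⟩ : s.Nonempty := by
    rw [← Finset.card_pos]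
    omega
  have hT : (s.erase x).card = 4 := by
    rw [Finset.card_erase_of_mem hx, hs]
  have hxu : x ∈ (fib C (q C (s.erase x))).biUnion id := by
    rw [h.fib_union hT]
    exact Finset.mem_univ x
  obtain ⟨T, hTf, hxT⟩ := Finset.mem_biUnion.1 hxu
  obtain ⟨hTc, hTq⟩ := mem_fib.1 hTf
  have hne : s.erase x ≠ T := by
    rintro rfl
    exact Finset.notMem_erase x s hxT
  have hd := h.disjoint hT hTc hTq.symm hne
  refine ⟨symmDiff (s.erase x) T, q_eq_iff.1 hTq.symm, ?_, ?_⟩
  · have := card_symmDiff_add (s.erase x) T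
    rw [Finset.disjoint_iff_inter_eq_empty.1 hd, Finset.card_empty] at this
    omega
  · rw [hd.symmDiff_eq_sup]
    intro y hy
    by_cases hyx : y = x
    · rw [hyx]
      exact Finset.mem_union_right _ hxT
    · exact Finset.mem_union_left _ (Finset.mem_erase.2 ⟨hyx, hy⟩)

/-- Octads sharing five points are equal. -/
theorem SD.octad_unique (h : SD C) {O O' s : Finset α} (hO : ind O ∈ C) (hOc : O.card = 8)
    (hO' : ind O' ∈ C) (hOc' : O'.card = 8) (hs : s.card = 5) (h1 : s ⊆ O) (h2 : s ⊆ O') :
    O = O' := by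
  rcases h.eq_or (symmDiff_mem hO hO') with h3 | h3
  · exact h3
  · have h4 := card_symmDiff_add O O'
    have h5 : s.card ≤ (O ∩ O').card := Finset.card_le_card (Finset.subset_inter h1 h2)
    omega

theorem SD.eq_orthogonal (h : SD C) : (form α).orthogonal C = C := by
  symm
  apply Submodule.eq_of_le_of_finrank_eq
  · intro v hv w hw
    exact h.orth w hw v hv
  · rw [LinearMap.BilinForm.finrank_orthogonal form_nondegenerate, h.finrank_eq,
      Module.finrank_fintype_fun_eq_card, h.card_eq]

theorem SD.even (h : SD C) {S : Finset α} (hS : ind S ∈ C) : Even S.card := by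
  have h1 := h.orth _ hS _ hS
  have h2 := (form_ind_eq_zero_iff S S).1 h1
  rwa [Finset.inter_self] at h2

theorem SD.mem_of_even (h : SD C) {S : Finset α}
    (hS : ∀ T : Finset α, ind T ∈ C → Even (S ∩ T).card) : ind S ∈ C := by
  rw [← h.eq_orthogonal]
  intro v hv
  show form α v (ind S) = 0
  rw [form_comm]
  have := eq_ind v
  rw [this] at hv ⊢
  exact (form_ind_eq_zero_iff _ _).2 (hS _ hv)

theorem SD.univ_mem (h : SD C) : ind (Finset.univ : Finset α) ∈ C := by
  apply h.mem_of_even
  intro T hT
  rw [Finset.univ_inter]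
  exact h.even hT

theorem SD.compl_mem (h : SD C) {S : Finset α} (hS : ind S ∈ C) : ind Sᶜ ∈ C := by
  have h1 := symmDiff_mem h.univ_mem hS
  have h2 : symmDiff (Finset.univ : Finset α) S = Sᶜ := by
    ext x
    simp [Finset.mem_symmDiff]
  rwa [h2] at h1

/-- There is no word of weight 10. -/
theorem SD.ne_ten (h : SD C) {D : Finset α} (hD : ind D ∈ C) : D.card ≠ 10 := by
  intro hDc
  obtain ⟨s, hsD, hs⟩ := Finset.exists_subset_card_eq (show 5 ≤ D.card by omega)
  obtain ⟨O, hO, hOc, hsO⟩ := h.exists_octad hs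
  have h5 : s.card ≤ (O ∩ D).card := Finset.card_le_card (Finset.subset_inter hsO hsD)
  have h6 : Even (O ∩ D).card := (form_ind_eq_zero_iff O D).1 (h.orth _ hO _ hD)
  have h4 := card_symmDiff_add O D
  rcases h.eq_or (symmDiff_mem hO hD) with h3 | h3
  · rw [h3] at hOc
    omega
  · obtain ⟨k, hk⟩ := h6
    omega

/-- **Double evenness.** -/
theorem SD.four_dvd (h : SD C) {S : Finset α} (hS : ind S ∈ C) : 4 ∣ S.card := by
  have h1 := h.even hS
  have h2 := h.ne_ten hS
  have h3 := h.ne_ten (h.compl_mem hS)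
  have h4 := Finset.card_compl_add_card S
  rw [h.card_eq] at h4
  by_cases h0 : S.Nonempty
  · have h5 := h.card_le hS h0
    by_cases h0' : Sᶜ.Nonempty
    · have h6 := h.card_le (h.compl_mem hS) h0'
      obtain ⟨k, hk⟩ := h1
      omega
    · rw [Finset.not_nonempty_iff_eq_empty] at h0'
      rw [h0', Finset.card_empty] at h4
      omega
  · rw [Finset.not_nonempty_iff_eq_empty] at h0
    rw [h0]
    simp

/-- The bridge to `IsGolay`. -/
theorem SD.isGolay (h : SD C) : IsGolay C where
  card_eq := h.card_eq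
  finrank_eq := h.finrank_eq
  orth := h.orth
  four_dvd := by
    intro w hw
    rw [eq_ind w] at hw ⊢
    rw [hammingNorm_ind]
    exact h.four_dvd hw
  ne_four := by
    intro w hw h4
    by_cases h0 : w = 0
    · rw [h0, hammingNorm_zero] at h4
      omega
    · have := h.min w hw h0
      omega

/-- a small non-empty set meets some octad in an odd number of points -/
theorem SD.exists_odd (h : SD C) {U : Finset α} (hU : U.card ≤ 4) (hne : U.Nonempty) :
    ∃ O : Finset α, ind O ∈ C ∧ O.card = 8 ∧ ¬ Even (U ∩ O).card := by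
  have hext : ∀ V : Finset α, V.card ≤ 5 → ∃ s, V ⊆ s ∧ s.card = 5 := by
    intro V hV
    obtain ⟨s, h1, -, h2⟩ := Finset.exists_subsuperset_card_eq (Finset.subset_univ V) hV
      (by rw [Finset.card_univ, h.card_eq]; omega)
    exact ⟨s, h1, h2⟩
  obtain ⟨s, hUs, hs⟩ := hext U (by omega)
  obtain ⟨O, hO, hOc, hsO⟩ := h.exists_octad hs
  have hUO : U ⊆ O := hUs.trans hsO
  by_cases hev : Even U.card
  · -- remove a point
    obtain ⟨a, ha⟩ := hne
    obtain ⟨p, hp⟩ : ∃ p, p ∉ O := by
      by_contra hall
      push Not at hall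
      have : O = Finset.univ := Finset.eq_univ_iff_forall.2 hall
      rw [this, Finset.card_univ, h.card_eq] at hOc
      omega
    have haO : a ∈ O := hUO ha
    have hUa : (U.erase a).card ≤ 3 := by
      rw [Finset.card_erase_of_mem ha]
      omega
    have hOa : (O.erase a).card = 7 := by
      rw [Finset.card_erase_of_mem haO]
      omega
    obtain ⟨t, h1, h2, h3⟩ := Finset.exists_subsuperset_card_eq
      (Finset.erase_subset_erase a hUO) (show (U.erase a).card ≤ 4 by omega)
      (show 4 ≤ (O.erase a).card by omega)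
    have hpt : p ∉ t := fun hpt => hp (Finset.mem_of_mem_erase (h2 hpt))
    have hs' : (insert p t).card = 5 := by
      rw [Finset.card_insert_of_notMem hpt]
      omega
    obtain ⟨O', hO', hOc', hsO'⟩ := h.exists_octad hs'
    have haO' : a ∉ O' := by
      intro haO'
      have hat : a ∉ t := fun hat => Finset.notMem_erase a O (h2 hat)
      have h5 : (insert a t).card = 5 := by
        rw [Finset.card_insert_of_notMem hat]
        omega
      have hOO : O = O' := by
        apply h.octad_unique hO hOc hO' hOc' h5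
        · intro y hy
          rcases Finset.mem_insert.1 hy with rfl | hy
          · exact haO
          · exact Finset.mem_of_mem_erase (h2 hy)
        · intro y hy
          rcases Finset.mem_insert.1 hy with rfl | hy
          · exact haO'
          · exact hsO' (Finset.mem_insert_of_mem hy)
      rw [hOO] at hp
      exact hp (hsO' (Finset.mem_insert_self p t))
    refine ⟨O', hO', hOc', ?_⟩
    have : U ∩ O' = U.erase a := by
      ext y
      rw [Finset.mem_inter, Finset.mem_erase]
      constructor
      · rintro ⟨hy1, hy2⟩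
        refine ⟨?_, hy1⟩
        rintro rfl
        exact haO' hy2
      · rintro ⟨hy1, hy2⟩
        exact ⟨hy2, hsO' (Finset.mem_insert_of_mem (h1 (Finset.mem_erase.2 ⟨hy1, hy2⟩)))⟩
    rw [this, Finset.card_erase_of_mem ha]
    intro hcon
    have hpos : 0 < U.card := Finset.card_pos.2 ⟨a, ha⟩
    obtain ⟨k, hk⟩ := hev
    obtain ⟨l, hl⟩ := hcon
    omega
  · refine ⟨O, hO, hOc, ?_⟩
    rwa [Finset.inter_eq_left.2 hUO]

/-- **The octads span.** -/
theorem SD.span (h : SD C) :
    Submodule.span (ZMod 2) {w : α → ZMod 2 | w ∈ C ∧ hammingNorm w = 8} = C := by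
  set B := Submodule.span (ZMod 2) {w : α → ZMod 2 | w ∈ C ∧ hammingNorm w = 8} with hB
  have hle : B ≤ C := Submodule.span_le.2 fun w hw => hw.1
  have hsub : (form α).orthogonal B ≤ C := by
    intro v hv
    -- the coset leader
    have hBO : ∀ O : Finset α, ind O ∈ C → O.card = 8 → form α v (ind O) = 0 := by
      intro O hO hOc
      rw [form_comm]
      exact hv _ (Submodule.subset_span ⟨hO, by rw [hammingNorm_ind, hOc]⟩)
    obtain ⟨U, hU, hUv⟩ : ∃ U : Finset α, U.card ≤ 4 ∧ ind U - v ∈ C := by
      rcases h.main (Submodule.Quotient.mk v) with ⟨S, hS, hSv⟩ | h6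
      · exact ⟨S, by omega, (Submodule.Quotient.eq C).1 hSv⟩
      · obtain ⟨S, hS⟩ : (fib C (Submodule.Quotient.mk v)).Nonempty := by
          rw [← Finset.card_pos]
          omega
        obtain ⟨h1, h2⟩ := mem_fib.1 hS
        exact ⟨S, by omega, (Submodule.Quotient.eq C).1 h2⟩
    have hUe : U = ∅ := by
      by_contra hne
      obtain ⟨O, hO, hOc, hodd⟩ := h.exists_odd hU (Finset.nonempty_iff_ne_empty.2 hne)
      apply hodd
      rw [← form_ind_eq_zero_iff]
      have h1 : form α (ind U - v) (ind O) = 0 := h.orth _ hUv _ hO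
      rw [map_sub, LinearMap.sub_apply, hBO O hO hOc, sub_zero] at h1
      exact h1
    rw [hUe, ind_empty, zero_sub] at hUv
    exact neg_mem_iff.1 hUv
  apply le_antisymm hle
  have h1 : Module.finrank (ZMod 2) ((form α).orthogonal B) ≤ 12 := by
    rw [← h.finrank_eq]
    exact Submodule.finrank_mono hsub
  rw [LinearMap.BilinForm.finrank_orthogonal form_nondegenerate,
    Module.finrank_fintype_fun_eq_card, h.card_eq] at h1
  apply le_of_eq
  symm
  apply Submodule.eq_of_le_of_finrank_le hle
  rw [h.finrank_eq]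
  omega

end Cfsg.Agent.H869.SelfDual
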